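import Mathlib
import Cfsg.Agent.Lib.Chev.Center

/-!
The Weyl group of type `E₈` has no element of order sixteen.
-/

set_option autoImplicit false

namespace H5.AE

open H38 Cfsg Cfsg.Lie Matrix Polynomial

theorem pow_eight (M : Matrix (Fin 8) (Fin 8) ℤ) (h : M ^ 16 = 1) : M ^ 8 = 1 ∨ M ^ 8 = -1 := by
  let f : Matrix (Fin 8) (Fin 8) ℤ →+* Matrix (Fin 8) (Fin 8) ℚ := (Int.castRingHom ℚ).mapMatrix
  have hf : Function.Injective f := Matrix.map_injective Int.cast_injective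
  have h1 : cyclotomic 16 ℚ = X ^ 8 + 1 := by
    rw [show 16 = 2 ^ (3 + 1) from rfl, cyclotomic_prime_pow_eq_geom_sum Nat.prime_two]
    simp [Finset.sum_range_succ, add_comm]
  have h2 := cyclotomic.irreducible_rat (show 0 < 16 by decide)
  have h3 : minpoly ℚ (f M) ∣ (X ^ 8 - 1) * cyclotomic 16 ℚ := minpoly.dvd _ _ (by
    rw [h1, show (X ^ 8 - 1 : ℚ[X]) * (X ^ 8 + 1) = X ^ 16 - 1 by ring]
    rw [map_sub, map_pow, aeval_X, map_one, ← map_pow, h, map_one, sub_self])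
  rcases h2.isCoprime_or_dvd (minpoly ℚ (f M)) with h4 | h4
  · have := aeval_eq_zero_of_dvd_aeval_eq_zero (h4.symm.dvd_of_dvd_mul_right h3) (minpoly.aeval ℚ (f M))
    simp only [map_sub, map_pow, aeval_X, map_one, sub_eq_zero] at this
    exact Or.inl (hf (by rw [map_pow, this, map_one]))
  · have h5 := aeval_self_charpoly (f M)
    rw [eq_of_monic_of_dvd_of_natDegree_le (cyclotomic.monic 16 ℚ) (charpoly_monic _)
      (h4.trans (minpoly_dvd_charpoly _)) (by rw [charpoly_natDegree_eq_dim, natDegree_cyclotomic]; decide), h1] at h5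
    simp only [map_add, map_pow, aeval_X, map_one, add_eq_zero_iff_eq_neg] at h5
    exact Or.inr (hf (by rw [map_pow, h5, map_neg, map_one]))

theorem no_sixteen (A B M : Matrix (Fin 8) (Fin 8) ℤ) (hA : Aᵀ = A) (hd : ∀ i, A i i = 2) (hB : A * B = 1)
    (hM : Mᵀ * A * M = A) (h : M ^ 8 = -1) : False := by
  obtain ⟨N, rfl⟩ : ∃ N, M = N + 1 := ⟨M - 1, by simp⟩
  obtain ⟨s, hs⟩ : ∃ s, s = N ^ 7 + 2 * (4 * N ^ 6 + 14 * N ^ 5 + 28 * N ^ 4 + 35 * N ^ 3 + 28 * N ^ 2 + 14 * N + 4) :=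
    ⟨_, rfl⟩
  have h1 : s * N = -2 := by
    rw [show s * N = (N + 1) ^ 8 - 1 by rw [hs]; noncomm_ring, h]; norm_num
  have h2 : N * s = -2 := by rw [← h1, hs]; noncomm_ring
  have h3 : sᵀ * Nᵀ = -2 := by rw [← transpose_mul, h2]; simp
  have h4 : A * s + sᵀ * A = 2 * A := by
    have e1 : Nᵀ * A * N + Nᵀ * A + A * N = 0 := by
      rw [← sub_self A]; nth_rw 4 [← hM]; rw [transpose_add, transpose_one]; noncomm_ring
    have e2 : sᵀ * (Nᵀ * A * N + Nᵀ * A + A * N) * s =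
        sᵀ * Nᵀ * A * (N * s) + sᵀ * Nᵀ * A * s + sᵀ * A * (N * s) := by noncomm_ring
    rw [e1, h2, h3, mul_zero, zero_mul] at e2
    refine smul_right_injective _ (show (2 : ℤ) ≠ 0 by decide) ?_
    beta_reduce
    rw [← sub_eq_zero, ← neg_eq_zero, e2]
    simp only [two_smul]
    noncomm_ring
  let f : Matrix (Fin 8) (Fin 8) ℤ →+* Matrix (Fin 8) (Fin 8) (ZMod 2) := (Int.castRingHom (ZMod 2)).mapMatrix
  have f2 : (2 : Matrix (Fin 8) (Fin 8) (ZMod 2)) = 0 := by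
    rw [← map_ofNat (algebraMap (ZMod 2) (Matrix (Fin 8) (Fin 8) (ZMod 2))) 2]
    exact map_zero _
  have h5 : f s = f N ^ 7 := by rw [hs, map_add, map_mul, map_ofNat, f2, zero_mul, add_zero, map_pow]
  have h6 : f N ^ 8 = 0 := by rw [pow_succ, ← h5, ← map_mul, h1, map_neg, map_ofNat, f2, neg_zero]
  have h7 : f s ≠ 0 := fun e => by
    choose t ht using fun i j => (ZMod.intCast_zmod_eq_zero_iff_dvd (s i j) 2).1 (congrFun (congrFun e i) j)
    have e1 : Matrix.of t * N = -1 := smul_right_injective _ (show (2 : ℤ) ≠ 0 by decide) (by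
      change (2 : ℤ) • _ = (2 : ℤ) • _
      rw [← smul_mul_assoc, show (2 : ℤ) • Matrix.of t = s from Matrix.ext fun i j => (ht i j).symm, h1, two_smul]
      norm_num)
    have e2 : IsUnit (f N) := IsUnit.of_mul_eq_one_right (-f (Matrix.of t)) (by
      rw [neg_mul, ← map_mul, e1, map_neg, neg_neg, map_one])
    exact not_isUnit_zero (h6 ▸ e2.pow 8)
  obtain ⟨j, hj⟩ : ∃ j, f s *ᵥ Pi.single j 1 ≠ 0 := by
    by_contra! e
    exact h7 (Matrix.ext fun i j => by simpa using congrFun (e j) i)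
  let φ : (Fin 8 → ZMod 2) →ₗ[ZMod 2] ZMod 2 := LinearMap.proj j ∘ₗ toLin' (f (sᵀ * A))
  have h8 : ∀ x, toLin' (f N) x ∈ LinearMap.ker φ := fun x => by
    have : f (sᵀ * A) * f N = 0 := by
      rw [← map_mul, show sᵀ * A * N = 2 * (A * N + A) by
        rw [eq_sub_of_add_eq' h4, sub_mul, mul_assoc A, h1]; noncomm_ring, map_mul, map_ofNat, f2, zero_mul]
    simp only [φ, LinearMap.mem_ker, LinearMap.comp_apply, toLin'_apply, mulVec_mulVec, this, zero_mulVec]
    rfl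
  have h9 : Pi.single j 1 ∈ LinearMap.ker φ := by
    have e1 := congrFun (congrFun h4 j) j
    rw [show A * s = (sᵀ * A)ᵀ by rw [transpose_mul, hA, transpose_transpose], two_mul, Matrix.add_apply,
      Matrix.add_apply, hd,
      transpose_apply] at e1
    have e2 : (sᵀ * A) j j = 2 := by omega
    simp only [φ, LinearMap.mem_ker, LinearMap.comp_apply, toLin'_apply, mulVec_single_one, LinearMap.proj_apply]
    exact (congrArg (Int.cast (R := ZMod 2)) e2).trans rfl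
  have h10 : LinearMap.ker φ ≠ ⊤ := fun e => hj (funext fun i => by
    have e1 := (e.ge (Submodule.mem_top (x := f B *ᵥ Pi.single i 1)) :)
    simp only [φ, LinearMap.mem_ker, LinearMap.comp_apply, toLin'_apply, mulVec_mulVec, ← map_mul, mul_assoc, hB,
      mul_one] at e1
    simpa [f] using e1)
  have h11 := Submodule.finrank_lt h10
  rw [Module.finrank_fin_fun] at h11
  let g := (toLin' (f N)).restrict (p := LinearMap.ker φ) fun x _ => h8 x
  have h12 : ∀ (n : ℕ) x, ((g ^ n) x : Fin 8 → ZMod 2) = (f N ^ n) *ᵥ x := fun n x => by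
    rw [Module.End.pow_restrict, LinearMap.coe_restrict_apply, ← toLin'_pow, toLin'_apply]
  have h13 : (⟨_, h9⟩ : LinearMap.ker φ) ∈ LinearMap.ker (g ^ 7) := by
    rw [Module.End.ker_pow_eq_ker_pow_finrank_of_le (by omega),
      ← Module.End.ker_pow_eq_ker_pow_finrank_of_le (m := 8) (by omega)]
    exact Subtype.ext (by rw [h12, h6, zero_mulVec]; rfl)
  exact hj (by rw [h5, ← h12 7 ⟨_, h9⟩, LinearMap.mem_ker.1 h13]; rfl)

/-- The Cartan matrix. -/
def A8 : Matrix (Fin 8) (Fin 8) ℤ := !![2, 0, -1, 0, 0, 0, 0, 0; 0, 2, 0, -1, 0, 0, 0, 0; -1, 0, 2, -1, 0, 0, 0, 0;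
  0, -1, -1, 2, -1, 0, 0, 0; 0, 0, 0, -1, 2, -1, 0, 0; 0, 0, 0, 0, -1, 2, -1, 0; 0, 0, 0, 0, 0, -1, 2, -1;
  0, 0, 0, 0, 0, 0, -1, 2]

theorem sixteen_aux {ι : Type} (R : RS ι (Fin 8)) (hA : ∀ i j, R.A i j = A8 i j) {w : Equiv.Perm ι} (hw : w ∈ R.W)
    (h : w ^ 16 = 1) : w ^ 8 = 1 := by
  have h1 : ∀ i, R.len (R.sim i) = R.len (R.sim 3) := by
    have e : ∀ i j, A8 i j = -1 → A8 j i = -1 → R.len (R.sim i) = R.len (R.sim j) := fun i j a b => by
      have := R.A_symm i j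
      rw [hA, hA, a, b] at this
      omega
    have a0 := e 0 2 rfl rfl; have a1 := e 1 3 rfl rfl; have a2 := e 2 3 rfl rfl; have a4 := e 4 3 rfl rfl
    have a5 := e 5 4 rfl rfl; have a6 := e 6 5 rfl rfl; have a7 := e 7 6 rfl rfl
    intro i
    fin_cases i
    exacts [a0.trans a2, a1, a2, rfl, a4, a5.trans a4, a6.trans (a5.trans a4), a7.trans (a6.trans (a5.trans a4))]
  let M : Matrix (Fin 8) (Fin 8) ℤ := Matrix.of fun i j => R.rt (w (R.sim j)) i
  have h2 : ∀ (n : ℕ) r, R.rt ((w ^ n) r) = M ^ n *ᵥ R.rt r := fun n r => by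
    induction n with
    | zero => simp
    | succ n ih =>
      rw [pow_succ', pow_succ', ← mulVec_mulVec, ← ih, Equiv.Perm.mul_apply, R.rt_W hw]
      funext i; simp [R.lin_apply, M, mulVec, dotProduct, mul_comm]
  have h3 : M ^ 16 = 1 := Matrix.ext fun i j => by
    have := congrFun (h2 16 (R.sim j)) i
    rw [h, Equiv.Perm.one_apply, R.rt_sim, mulVec_single_one] at this
    exact this.symm.trans (by simp [Pi.single_apply, one_apply])
  rcases pow_eight M h3 with e | e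
  · exact Equiv.ext fun r => R.rt_inj (by rw [h2, e, one_mulVec]; rfl)
  refine (no_sixteen A8 !![4, 5, 7, 10, 8, 6, 4, 2; 5, 8, 10, 15, 12, 9, 6, 3; 7, 10, 14, 20, 16, 12, 8, 4;
    10, 15, 20, 30, 24, 18, 12, 6; 8, 12, 16, 24, 20, 15, 10, 5; 6, 9, 12, 18, 15, 12, 8, 4; 4, 6, 8, 12, 10, 8, 6, 3;
    2, 3, 4, 6, 5, 4, 3, 2] M (by decide +kernel) (by decide +kernel) (by decide +kernel)
    (Matrix.ext fun i j => ?_) e).elim
  have h4 : ∀ a, R.cor (w (R.sim i)) a = R.rt (w (R.sim i)) a := fun a => mul_left_cancel₀ (R.len_ne _) (by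
    rw [R.len_cor, R.len_W hw, h1, h1 i, mul_comm])
  rw [← hA, ← R.wt_sim, ← R.pair_sim_left, ← R.pair_W hw, R.pair_eq_sum, Matrix.mul_assoc]
  simp [mul_apply, M, h4, RS.wt, RS.wtv, hA, mul_comm]

theorem sixteen (R : RootSys chevE8) {w : Equiv.Perm (Fin chevE8.nroots)} (hw : w ∈ R.W) : ¬ 16 ∣ orderOf w := by
  rintro ⟨m, hm⟩
  have h0 := orderOf_pos w
  have h1 : (Matrix.of fun i j : Fin 8 => chevE8.cartan i (chevE8.simple j)) = A8 := by decide +kernel
  have := sixteen_aux R.toRS (fun i j => (R.A_eq i j).trans (congrFun (congrFun h1 i) j)) (pow_mem hw m)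
    (by rw [← pow_mul, mul_comm, ← hm, pow_orderOf_eq_one])
  rw [← pow_mul] at this
  have := Nat.le_of_dvd (by omega) (orderOf_dvd_of_pow_eq_one this)
  omega

end H5.AE
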